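import Cfsg.Agent.H105.Dp.Cyc
import Cfsg.Agent.H192.Dp.Defs

/-!
# Good primes of quotients of isometry groups (helper105, DP8 of S5734)
-/

set_option autoImplicit false

namespace Cfsg.Agent.H105.Dp

open Module Subgroup

/-- the automizer of a subgroup of prime order, from a set of exponents -/
theorem relIndex_le_of {G : Type*} [Group G] [Finite G] {x : G} {u : ℕ} (hx : orderOf x = u) {w : ℕ}
    (S : Finset (ZMod u)) (hS : S.card ≤ w)
    (h : ∀ (n : G) (k : ℕ), n * x * n⁻¹ = x ^ k → (k : ZMod u) ∈ S) :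
    (centralizer ({x} : Set G)).relIndex (normalizer (zpowers x : Set G)) ≤ w := by
  classical
  refine le_trans ?_ hS
  have hk : ∀ n : normalizer (zpowers x : Set G), ∃ k : ℕ, (n : G) * x * (n : G)⁻¹ = x ^ k := by
    intro n
    have h1 : (n : G) * x * (n : G)⁻¹ ∈ zpowers x := (mem_normalizer_iff.1 n.2 x).1 (mem_zpowers x)
    rw [← mem_powers_iff_mem_zpowers] at h1
    obtain ⟨k, hk⟩ := h1
    exact ⟨k, hk.symm⟩
  choose κ hκ using hk
  let C := (centralizer ({x} : Set G)).subgroupOf (normalizer (zpowers x : Set G))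
  let f : (normalizer (zpowers x : Set G)) ⧸ C → S := fun c => ⟨(κ c.out : ZMod u), h _ _ (hκ c.out)⟩
  have hf : Function.Injective f := by
    intro c d hcd
    have h1 : ((κ c.out : ℕ) : ZMod u) = ((κ d.out : ℕ) : ZMod u) := congrArg Subtype.val hcd
    rw [ZMod.natCast_eq_natCast_iff] at h1
    have h2 : x ^ κ c.out = x ^ κ d.out := by
      rw [pow_eq_pow_iff_modEq, hx]
      exact h1
    rw [← hκ, ← hκ] at h2
    rw [← c.out_eq', ← d.out_eq', QuotientGroup.eq]
    rw [mem_subgroupOf, mem_centralizer_singleton_iff]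
    show (c.out : G)⁻¹ * (d.out : G) * x = x * ((c.out : G)⁻¹ * (d.out : G))
    have h3 : (d.out : G) * x = (c.out : G) * x * (c.out : G)⁻¹ * (d.out : G) := by
      rw [h2]; group
    rw [mul_assoc, h3]
    group
  have h3 := Nat.card_le_card_of_injective f hf
  rw [Nat.card_eq_fintype_card (α := S), Fintype.card_coe] at h3
  exact h3

variable {F V : Type*} [Field F] [AddCommGroup V] [Module F V] [FiniteDimensional F V]

theorem exists_eigen {K W : Type*} [Field K] [IsAlgClosed K] [AddCommGroup W] [Module K W] [FiniteDimensional K W]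
    {u : ℕ} (hu : u.Prime) (huK : (u : K) ≠ 0) {g : W →ₗ[K] W} (hgu : g ^ u = 1) (hg1 : g ≠ 1) :
    ∃ ζ : K, orderOf ζ = u ∧ Module.End.HasEigenvalue g ζ := by
  have hc := isCompl_ker_range huK hgu
  have hW : ∀ v ∈ LinearMap.range (g - 1), g v ∈ LinearMap.range (g - 1) := by
    rintro v ⟨w, rfl⟩
    refine ⟨g w, ?_⟩
    show g (g w) - g w = g (g w - w)
    rw [map_sub]
  have hnt : Nontrivial (LinearMap.range (g - 1)) := by
    rw [Submodule.nontrivial_iff_ne_bot]
    intro h
    rw [LinearMap.range_eq_bot, sub_eq_zero] at h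
    exact hg1 h
  obtain ⟨ζ, hζ⟩ := Module.End.exists_eigenvalue (g.restrict hW)
  obtain ⟨v, hv⟩ := hζ.exists_hasEigenvector
  have hv1 : g (v : W) = ζ • (v : W) := congrArg Subtype.val hv.apply_eq_smul
  have hv0 : (v : W) ≠ 0 := fun h => hv.2 (Subtype.ext h)
  refine ⟨ζ, ?_, ?_⟩
  · have h1 : ζ ^ u = 1 := by
      have h2 : Module.End.HasEigenvector g ζ (v : W) := ⟨Module.End.mem_eigenspace_iff.2 hv1, hv0⟩
      have h3 := h2.pow_apply u
      rw [hgu] at h3
      have h4 : (ζ ^ u - 1) • (v : W) = 0 := by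
        rw [sub_smul, one_smul, ← h3, Module.End.one_apply, sub_self]
      exact sub_eq_zero.1 ((smul_eq_zero.1 h4).resolve_right hv0)
    refine orderOf_eq_prime_iff (hp := ⟨hu⟩) |>.2 ⟨h1, ?_⟩
    rintro rfl
    apply hv0
    refine Submodule.disjoint_def.1 hc.disjoint _ ?_ v.2
    rw [LinearMap.mem_ker, LinearMap.sub_apply, hv1, one_smul, Module.End.one_apply, sub_self]
  · exact Module.End.hasEigenvalue_of_hasEigenvector ⟨Module.End.mem_eigenspace_iff.2 hv1, hv0⟩

/-- **The exponents.** -/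
theorem exists_exponents {u : ℕ} (hu : u.Prime) (huF : (u : F) ≠ 0) {g : V →ₗ[F] V} (hgu : g ^ u = 1) (hg1 : g ≠ 1) :
    ∃ S : Finset (ZMod u), S.card ≤ finrank F V ∧
      ∀ (n : V ≃ₗ[F] V) (k : ℕ), (n : V →ₗ[F] V) ∘ₗ g ∘ₗ (n.symm : V →ₗ[F] V) = g ^ k → (k : ZMod u) ∈ S := by
  classical
  have hfu := Fact.mk hu
  let K := AlgebraicClosure F
  let g' := g.baseChange K
  have huK : (u : K) ≠ 0 := by
    intro h
    apply huF
    apply (algebraMap F K).injective
    rw [map_natCast, h, map_zero]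
  have hgu' : g' ^ u = 1 := by
    rw [← LinearMap.baseChange_pow, hgu]
    exact LinearMap.baseChange_one _ _
  have hg1' : g' ≠ 1 := by
    intro h
    apply hg1
    apply LinearMap.ext
    intro v
    have h1 : g' (1 ⊗ₜ[F] v) = (1 : K) ⊗ₜ[F] v := by rw [h]; rfl
    rw [LinearMap.baseChange_tmul] at h1
    have h2 := sub_eq_zero.2 h1
    rw [← TensorProduct.tmul_sub] at h2
    have h3 : g v - v = 0 := by
      have hinj : Function.Injective (fun w : V => (1 : K) ⊗ₜ[F] w) :=
        Module.FaithfullyFlat.tensorProduct_mk_injective (A := F) (B := K) V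
      apply hinj
      show (1 : K) ⊗ₜ[F] (g v - v) = (1 : K) ⊗ₜ[F] (0 : V)
      rw [h2, TensorProduct.tmul_zero]
    exact sub_eq_zero.1 h3
  obtain ⟨ζ, hζ, hζe⟩ := exists_eigen hu huK hgu' hg1'
  let R := (g.charpoly.map (algebraMap F K)).roots.toFinset
  refine ⟨Finset.univ.filter fun z : ZMod u => ζ ^ z.val ∈ R, ?_, ?_⟩
  · have h1 : (Finset.univ.filter fun z : ZMod u => ζ ^ z.val ∈ R).card ≤ R.card := by
      refine Finset.card_le_card_of_injOn (fun z => ζ ^ z.val) (fun z hz => by simpa using hz) ?_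
      intro z _ w _ h
      have h2 : ζ ^ z.val = ζ ^ w.val := h
      have h3 := pow_injOn_Iio_orderOf (x := ζ) (by rw [Set.mem_Iio, hζ]; exact z.val_lt) (by rw [Set.mem_Iio, hζ]; exact w.val_lt) h2
      exact ZMod.val_injective u h3
    refine h1.trans ((Multiset.toFinset_card_le _).trans ((Polynomial.card_roots' _).trans ?_))
    rw [Polynomial.natDegree_map, LinearMap.charpoly_natDegree]
  · intro n k hn
    rw [Finset.mem_filter]
    refine ⟨Finset.mem_univ _, ?_⟩
    have h1 : (g ^ k).charpoly = g.charpoly := by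
      rw [← hn]
      exact LinearEquiv.charpoly_conj n g
    have h2 : Module.End.HasEigenvalue ((g ^ k).baseChange K) (ζ ^ k) := by
      rw [LinearMap.baseChange_pow]
      exact hζe.pow k
    rw [Module.End.hasEigenvalue_iff_isRoot_charpoly, LinearMap.charpoly_baseChange, h1] at h2
    have h3 : ζ ^ ((k : ℕ) : ZMod u).val = ζ ^ k := by
      rw [ZMod.val_natCast]
      rw [← hζ]
      exact pow_mod_orderOf ζ k
    rw [h3, Multiset.mem_toFinset, Polynomial.mem_roots]
    · exact h2
    · exact Polynomial.map_ne_zero g.charpoly_monic.ne_zero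

end Cfsg.Agent.H105.Dp
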