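import Cfsg.Agent.H105.Dp.Lin2
import Cfsg.Agent.S0126

/-!
# Groups of isometries of prime power order are cyclic if the dimension is small (helper105, DP8 of S5734)
-/

set_option autoImplicit false

namespace Cfsg.Agent.H105.Dp

open Module

section norm

variable {M : Type*} [Monoid M] {u : ℕ} [Fact u.Prime]

theorem pow_val_add {x : M} (hx : x ^ u = 1) (z w : ZMod u) : x ^ (z + w).val = x ^ z.val * x ^ w.val := by
  rw [ZMod.val_add, ← pow_add]
  conv_rhs => rw [← Nat.mod_add_div (z.val + w.val) u, pow_add, pow_mul, hx, one_pow, mul_one]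

theorem pow_val_mul {x : M} (hx : x ^ u = 1) (z w : ZMod u) : x ^ (z * w).val = x ^ (z.val * w.val) := by
  rw [ZMod.val_mul]
  conv_rhs => rw [← Nat.mod_add_div (z.val * w.val) u, pow_add, pow_mul, hx, one_pow, mul_one]

end norm

variable {F V : Type*} [Field F] [AddCommGroup V] [Module F V]

/-- the norm -/
def nm (u : ℕ) [Fact u.Prime] (g : V →ₗ[F] V) (v : V) : V := ∑ z : ZMod u, (g ^ z.val) v

theorem nm_fix {u : ℕ} [Fact u.Prime] {g : V →ₗ[F] V} (hg : g ^ u = 1) (v : V) : g (nm u g v) = nm u g v := by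
  unfold nm
  rw [map_sum]
  rw [← Equiv.sum_comp (Equiv.addLeft (1 : ZMod u)) (fun z => (g ^ z.val) v)]
  refine Finset.sum_congr rfl fun z _ => ?_
  rw [Equiv.coe_addLeft, pow_val_add hg]
  have hu : u.Prime := Fact.out
  have h1 : (1 : ZMod u).val = 1 := by
    have hf : Fact (1 < u) := ⟨hu.one_lt⟩
    exact ZMod.val_one u
  rw [h1, pow_one]
  rfl

theorem nm_identity {u : ℕ} [Fact u.Prime] {g h : V →ₗ[F] V} (hh : h ^ u = 1) (hgh : Commute g h)
    (v : V) : ∑ z : ZMod u, nm u (g * h ^ z.val) v + nm u h v = (u : F) • v + nm u g (nm u h v) := by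
  have h1 : ∀ w : ZMod u, ∑ z : ZMod u, ((g * h ^ z.val) ^ w.val) v =
      (g ^ w.val) (∑ z : ZMod u, (h ^ (z * w).val) v) := by
    intro w
    rw [map_sum]
    refine Finset.sum_congr rfl fun z _ => ?_
    rw [(hgh.pow_right z.val).mul_pow, ← pow_mul, pow_val_mul hh]
    rfl
  have h2 : ∑ z : ZMod u, nm u (g * h ^ z.val) v = ∑ w : ZMod u, (g ^ w.val) (∑ z : ZMod u, (h ^ (z * w).val) v) := by
    unfold nm
    rw [Finset.sum_comm]
    exact Finset.sum_congr rfl fun w _ => h1 w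
  have h3 : ∀ w : ZMod u, w ≠ 0 → ∑ z : ZMod u, (h ^ (z * w).val) v = nm u h v := by
    intro w hw
    exact Equiv.sum_comp (Equiv.mulRight₀ w hw) (fun z => (h ^ z.val) v)
  have h4 : ∑ z : ZMod u, (h ^ (z * (0 : ZMod u)).val) v = (u : F) • v := by
    simp only [mul_zero, ZMod.val_zero, pow_zero, Module.End.one_apply, Finset.sum_const, Finset.card_univ, ZMod.card]
    rw [Nat.cast_smul_eq_nsmul]
  rw [h2]
  rw [← Finset.add_sum_erase Finset.univ (fun w => (g ^ w.val) (∑ z : ZMod u, (h ^ (z * w).val) v))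
    (Finset.mem_univ (0 : ZMod u))]
  have h5 : ∑ w ∈ Finset.univ.erase (0 : ZMod u), (g ^ w.val) (∑ z : ZMod u, (h ^ (z * w).val) v) =
      ∑ w ∈ Finset.univ.erase (0 : ZMod u), (g ^ w.val) (nm u h v) := by
    refine Finset.sum_congr rfl fun w hw => ?_
    rw [h3 w (Finset.ne_of_mem_erase hw)]
  rw [h5]
  have h6 : nm u g (nm u h v) = (g ^ (0 : ZMod u).val) (nm u h v) +
      ∑ w ∈ Finset.univ.erase (0 : ZMod u), (g ^ w.val) (nm u h v) :=
    (Finset.add_sum_erase Finset.univ (fun w : ZMod u => (g ^ w.val) (nm u h v)) (Finset.mem_univ (0 : ZMod u))).symm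
  rw [h6]
  simp only [h4, ZMod.val_zero, pow_zero, Module.End.one_apply]
  abel

variable [FiniteDimensional F V]

/-- **Cyclic Sylow subgroups.** -/
theorem isCyclic_of [Finite F] (b : Frm F V) {u : ℕ} (hu : u.Prime) (hu2 : u ≠ 2) (huF : (u : F) ≠ 0)
    (hdim : finrank F V < 2 * ee F u) {Γ : Type*} [Group Γ] [Finite Γ] (hΓ : IsPGroup u Γ)
    (ρ : Γ →* (V →ₗ[F] V)) (hinj : Function.Injective ρ) (hiso : ∀ g, Iso b (ρ g)) : IsCyclic Γ := by
  have hfu := Fact.mk hu
  by_contra hnc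
  obtain ⟨A, -, hA, hcA⟩ := S0126.result hu2 hΓ hnc
  have hcomm : ∀ x ∈ A, ∀ y ∈ A, x * y = y * x := fun x hx y hy =>
    congrArg Subtype.val (hA.1.is_comm.comm (⟨x, hx⟩ : A) ⟨y, hy⟩)
  have hpow : ∀ x ∈ A, x ^ u = 1 := hA.2
  obtain ⟨y, hyA, hy1⟩ : ∃ y ∈ A, y ≠ 1 := by
    by_contra h
    push Not at h
    have : A = ⊥ := (Subgroup.eq_bot_iff_forall A).2 h
    rw [this, Subgroup.card_bot] at hcA
    have := Nat.one_lt_pow (n := 2) (by norm_num) hu.one_lt
    omega
  obtain ⟨x, hxA, hxy⟩ : ∃ x ∈ A, x ∉ Subgroup.zpowers y := by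
    by_contra h
    push Not at h
    have h1 : Nat.card A ≤ Nat.card (Subgroup.zpowers y) := Subgroup.card_le_of_le h
    rw [hcA, Nat.card_zpowers] at h1
    have h2 := orderOf_le_of_pow_eq_one hu.pos (hpow y hyA)
    have : u < u ^ 2 := by rw [pow_two]; exact lt_mul_of_one_lt_left hu.pos hu.one_lt
    omega
  -- fixed spaces
  have hfix : ∀ z ∈ A, z ≠ 1 → ∀ v, (ρ z) v = v → (ρ x) v = v := by
    intro z hz hz1 v hv
    refine fix_le b hu hu2 huF hdim (hiso z) ?_ ?_ (hiso x) ?_ ?_ hv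
    · rw [← map_pow, hpow z hz, map_one]
    · intro h
      exact hz1 (hinj (by rw [h, map_one]))
    · rw [← map_pow, hpow x hxA, map_one]
    · rw [← map_mul, ← map_mul, hcomm z hz x hxA]
  have hall : ∀ v, (ρ x) v = v := by
    intro v
    have key := nm_identity (u := u) (g := ρ x) (h := ρ y) (by rw [← map_pow, hpow y hyA, map_one])
      (by
        show ρ x * ρ y = ρ y * ρ x
        rw [← map_mul, ← map_mul, hcomm x hxA y hyA]) v
    have hK : ∀ z ∈ A, z ≠ 1 → ∀ v, nm u (ρ z) v ∈ LinearMap.ker (ρ x - 1) := by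
      intro z hz hz1 v
      rw [LinearMap.mem_ker, LinearMap.sub_apply, sub_eq_zero]
      exact hfix z hz hz1 _ (nm_fix (by rw [← map_pow, hpow z hz, map_one]) v)
    have h1 : ∀ z : ZMod u, nm u (ρ x * ρ y ^ z.val) v ∈ LinearMap.ker (ρ x - 1) := by
      intro z
      rw [← map_pow, ← map_mul]
      refine hK _ (A.mul_mem hxA (A.pow_mem hyA _)) ?_ v
      intro h
      apply hxy
      rw [eq_inv_of_mul_eq_one_left h]
      exact inv_mem (Subgroup.npow_mem_zpowers y _)
    have hx1 : x ≠ 1 := by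
      rintro rfl
      exact hxy (one_mem _)
    have h2 : (u : F) • v ∈ LinearMap.ker (ρ x - 1) := by
      have h3 : (u : F) • v = ∑ z : ZMod u, nm u (ρ x * ρ y ^ z.val) v + nm u (ρ y) v -
          nm u (ρ x) (nm u (ρ y) v) := by rw [key]; abel
      rw [h3]
      exact sub_mem (add_mem (sum_mem fun z _ => h1 z) (hK y hyA hy1 v)) (hK x hxA hx1 _)
    have h4 : v ∈ LinearMap.ker (ρ x - 1) := by
      have := Submodule.smul_mem _ ((u : F)⁻¹) h2
      rwa [smul_smul, inv_mul_cancel₀ huF, one_smul] at this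
    rw [LinearMap.mem_ker, LinearMap.sub_apply, sub_eq_zero] at h4
    exact h4
  apply hxy
  have : x = 1 := hinj (by rw [map_one]; exact LinearMap.ext hall)
  rw [this]
  exact one_mem _

end Cfsg.Agent.H105.Dp
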