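import Cfsg.Agent.H105.Dp.Group
import Cfsg.Agent.H105.SzSp8
import Cfsg.Agent.H105.SzO6
import Cfsg.Agent.H105.SzO9
import Cfsg.Agent.H192.Dp.Res

/-!
# Good primes of the symplectic and orthogonal groups (helper105, DP8 of S5734)

`goodP_cl` : for a prime `u` with `LevP g u`, `g` symplectic or orthogonal, `GoodP T u (dm g)`.
-/

set_option autoImplicit false

namespace Cfsg.Agent.H105.Dp

open Module Subgroup Cfsg Cfsg.Agent.OrdDiv Cfsg.Agent.H436 Cfsg.Agent.H192.Dp

universe w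

section arith

theorem ee_of_even {F : Type*} [Field F] {u e : ℕ} (h : orderOf ((Nat.card F : ℕ) : ZMod u) = e) (he : Even e) :
    ee F u = e := by
  unfold ee
  rw [h]
  exact Nat.lcm_eq_right he.two_dvd

theorem ee_of_odd {F : Type*} [Field F] {u e : ℕ} (h : orderOf ((Nat.card F : ℕ) : ZMod u) = e) (he : Odd e) :
    ee F u = 2 * e := by
  unfold ee
  rw [h]
  exact Nat.Coprime.lcm_eq_mul ((Nat.coprime_two_left).2 he)

theorem lt_ee {F : Type*} [Field F] {u e m k l : ℕ} (h : orderOf ((Nat.card F : ℕ) : ZMod u) = e)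
    (hL : LevSp m k l e) : 2 * m + 1 < 2 * ee F u := by
  rcases hL with ⟨h3, ⟨he, h1, -⟩ | ⟨he, h1, -⟩⟩
  · rw [ee_of_even h he]; omega
  · rw [ee_of_odd h he]; omega

variable {q u e : ℕ}

theorem cast_ne_zero (hu : u.Prime) (h : orderOf (q : ZMod u) = e) (he : 3 ≤ e) : (q : ZMod u) ≠ 0 := by
  have hf := Fact.mk hu
  intro h0
  have h1 : (q : ZMod u) ^ orderOf (q : ZMod u) = 1 := pow_orderOf_eq_one _
  rw [h, h0, zero_pow (by omega)] at h1
  exact zero_ne_one h1

theorem five_le (hu : u.Prime) (h : orderOf (q : ZMod u) = e) (he : 3 ≤ e) : 5 ≤ u := by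
  have hf := Fact.mk hu
  have h1 := ZMod.orderOf_dvd_card_sub_one (cast_ne_zero hu h he)
  rw [h] at h1
  have h2 := Nat.le_of_dvd (Nat.sub_pos_of_lt hu.one_lt) h1
  have h3 : u ≠ 4 := by rintro rfl; norm_num at hu
  omega

theorem natCast_ne_zero {F : Type*} [Field F] [Fintype F] (hu : u.Prime) (hq : Fintype.card F = q)
    (h : orderOf (q : ZMod u) = e) (he : 3 ≤ e) : (u : F) ≠ 0 := by
  intro h0
  have hf := Fact.mk hu
  have hch : CharP F u := by
    obtain ⟨p, hp⟩ := CharP.exists F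
    have h2 : p ∣ u := (CharP.cast_eq_zero_iff F p u).1 h0
    rcases (Nat.dvd_prime hu).1 h2 with h3 | h3
    · exact absurd h3 (CharP.char_ne_one F p)
    · rw [← h3]; exact hp
  apply cast_ne_zero hu h he
  rw [ZMod.natCast_eq_zero_iff, ← CharP.cast_eq_zero_iff F u, ← hq]
  exact Nat.cast_card_eq_zero F

theorem dvd_pow_sub_one (hq : 1 ≤ q) (h : orderOf (q : ZMod u) = e) {j : ℕ} (hj : e ∣ j) : u ∣ q ^ j - 1 := by
  rw [← Nat.modEq_iff_dvd' (Nat.one_le_pow _ _ hq), ← ZMod.natCast_eq_natCast_iff, Nat.cast_one, Nat.cast_pow]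
  exact (orderOf_dvd_iff_pow_eq_one.1 (h ▸ hj)).symm

theorem dvd_prB (hq : 1 ≤ q) (h : orderOf (q : ZMod u) = e) {n j : ℕ} (hj : e ∣ 2 * j) (h1 : 1 ≤ j) (hn : j ≤ n) :
    u ∣ prB q n := by
  unfold prB
  refine (dvd_pow_sub_one hq h hj).trans (List.dvd_prod ?_)
  rw [List.mem_map]
  exact ⟨j - 1, List.mem_range.2 (by omega), by rw [Nat.sub_add_cancel h1]⟩

theorem dvd_prB_of_lev (hq : 1 ≤ q) (h : orderOf (q : ZMod u) = e) {m n : ℕ} (hL : LevSp m (2 * n) n e) :
    u ∣ prB q n := by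
  rcases hL with ⟨h3, ⟨he, -, h2⟩ | ⟨he, -, h2⟩⟩
  · obtain ⟨k, rfl⟩ := he
    exact dvd_prB (j := k) hq h (by rw [two_mul]) (by omega) (by omega)
  · exact dvd_prB (j := e) hq h (Dvd.intro_left _ rfl) (by omega) (by omega)

theorem coprime_gcd (hu5 : 5 ≤ u) (_hu : u.Prime) {d x : ℕ} (hd : d ∣ 4) : ¬ u ∣ Nat.gcd d x := by
  intro h
  have h1 := (h.trans (Nat.gcd_dvd_left d x)).trans hd
  have := Nat.le_of_dvd (by norm_num) h1
  omega

theorem dvd_card_of {T : Type w} [Group T] {g : Grp} (hg : IsNamed g T) (hu : u.Prime)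
    (h1 : u ∣ num g) (h2 : ¬ u ∣ den g) : u ∣ Nat.card T := by
  rw [← hg.eq] at h1
  exact (hu.dvd_mul.1 h1).resolve_left h2

end arith

section forms

variable {F V : Type*} [Field F] [AddCommGroup V] [Module F V]

/-- the form of a symplectic space -/
def frmSp {B : LinearMap.BilinForm F V} (h : Cfsg.Agent.H955.IsSp B) : Frm F V where
  B := B
  nd := h.nd
  refl x y hxy := by rw [h.swap, hxy, neg_zero]
  alt _ := h.alt

/-- the polar form of a quadratic space -/
def frmQ {Q : QuadraticForm F V} (h : Cfsg.Agent.LieClassical.OrthCore.Nondeg Q) : Frm F V where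
  B := QuadraticMap.polarBilin Q
  nd x hx := h x hx
  refl x y hxy := by
    show QuadraticMap.polar Q y x = 0
    rw [QuadraticMap.polar_comm]
    exact hxy
  alt h2 x := by
    show QuadraticMap.polar Q x x = 0
    rw [QuadraticMap.polar_self, ← Nat.cast_smul_eq_nsmul F, Nat.cast_ofNat, h2, zero_smul]

theorem sq_eq_one_of_scalar (b : Frm F V) {z : V ≃ₗ[F] V} (hz : Iso b (z : V →ₗ[F] V)) (hs : Cfsg.Agent.H105.Sz.Scalar z) :
    z ^ 2 = 1 := by
  obtain ⟨c, hc⟩ := hs
  apply LinearEquiv.ext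
  intro v
  show z (z v) = v
  by_cases hv : v = 0
  · rw [hv, map_zero, map_zero]
  obtain ⟨y, hy⟩ : ∃ y, b.B v y ≠ 0 := by
    by_contra hcon
    push Not at hcon
    exact hv (b.nd v hcon)
  have h1 : b.B (z v) (z y) = b.B v y := hz v y
  rw [hc, hc, map_smul, map_smul, LinearMap.smul_apply, smul_eq_mul, smul_eq_mul, ← mul_assoc] at h1
  have h2 : c * c = 1 := mul_right_cancel₀ hy (h1.trans (one_mul _).symm)
  rw [hc, hc, smul_smul, h2, one_smul]

end forms

theorem goodP_psp {m q : ℕ} {T : Type w} [Group T] [Finite T] (hT : IsNamed (.psp m q) T) {u : ℕ} (hu : u.Prime)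
    (hL : LevP (.psp m q) u) : GoodP T u (2 * m) := by
  obtain ⟨e, hlev, he⟩ := hL
  obtain ⟨F, _, _, hq, ⟨φ⟩⟩ := hT.real
  have h3 := hlev.1
  have hF0 := natCast_ne_zero hu hq he h3
  have hu5 := five_le hu he h3
  have he' : orderOf ((Nat.card F : ℕ) : ZMod u) = e := by rw [Nat.card_eq_fintype_card, hq]; exact he
  have hS : Cfsg.Agent.H955.IsSp (F := F) (V := Fin m ⊕ Fin m → F) (Cfsg.Agent.ClassicalGeometry.SympBasic.sympBilin m F) :=
    Cfsg.Agent.H955.isSp_sympBilin m F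
  have hfr : finrank F (Fin m ⊕ Fin m → F) = 2 * m := by
    rw [finrank_fintype_fun_eq_card, Fintype.card_sum, Fintype.card_fin]; omega
  have hiso : ∀ h, Iso (frmSp hS) (SzSp.rho m F h : (Fin m ⊕ Fin m → F) →ₗ[F] (Fin m ⊕ Fin m → F)) := by
    intro h x y
    have : SzSp.rho m F h ∈ Cfsg.Agent.H955.IsoB (Cfsg.Agent.ClassicalGeometry.SympBasic.sympBilin m F) := by
      rw [← SzSp.rho_range]; exact ⟨h, rfl⟩
    exact this x y
  rw [← hfr]
  refine goodP_of (frmSp hS) hu (by omega) hF0 (by rw [hfr]; have := lt_ee he' hlev; omega) (SzSp.rho m F)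
    SzSp.rho_injective hiso ?_ φ ?_
  · intro z hz
    have h1 : (SzSp.rho m F z) ^ 2 = 1 := by
      refine sq_eq_one_of_scalar (frmSp hS) (hiso z) (SzSp.scalar_of_comm hS ?_)
      intro g hg v
      rw [← SzSp.rho_range] at hg
      obtain ⟨A, rfl⟩ := hg
      have h1 := congrArg (fun g => SzSp.rho m F g v) (Subgroup.mem_center_iff.mp hz A)
      simp only [map_mul] at h1
      exact h1.symm
    exact SzSp.rho_injective (by rw [map_pow, h1, map_one])
  · refine dvd_card_of hT hu ?_ (coprime_gcd hu5 hu (by norm_num))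
    exact Dvd.dvd.mul_left (dvd_prB_of_lev (by rw [← hq]; exact Fintype.card_pos) he hlev) _

open Cfsg.Agent.LieClassical.OrthCore Cfsg.Agent.LieClassical.OrthFinite Cfsg.Agent.LieClassical.OrthSimple
  Cfsg.Agent.LieClassical.OrthForms

theorem goodP_POmega {ι : Type} [Fintype ι] [DecidableEq ι] {F : Type} [Field F] [Finite F]
    {Q : QuadraticForm F (ι → F)} (hQ : Nondeg Q) (hd : 5 ≤ Fintype.card ι) {T : Type w} [Group T] [Finite T]
    {qf : (ι → F) → F} (hqf : ⇑Q = qf) (φ : T ≃* Cfsg.POmega F qf) {u : ℕ} (hu : u.Prime) (hu2 : u ≠ 2) (huF : (u : F) ≠ 0)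
    (hdim : finrank F (ι → F) < 2 * ee F u) (hdvd : u ∣ Nat.card T) : GoodP T u (finrank F (ι → F)) := by
  subst hqf
  have hG : Cfsg.Agent.LieClassical.OrthTrans.Good Q := good_of_finite hQ (by rwa [Module.finrank_fintype_fun_eq_card])
  have hfinV : Finite ((ι → F) ≃ₗ[F] (ι → F)) :=
    Finite.of_injective (fun e : (ι → F) ≃ₗ[F] (ι → F) => (e : (ι → F) → (ι → F))) DFunLike.coe_injective
  have hiso : ∀ h : E Q, Iso (frmQ hQ) ((E Q).subtype h : (ι → F) →ₗ[F] (ι → F)) := by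
    intro h x y
    exact polar_map (E_le_O (Q := Q) h.2) x y
  refine goodP_of (frmQ hQ) hu hu2 huF hdim (E Q).subtype (Subgroup.subtype_injective _) hiso ?_
    (φ.trans (quotientCenterCongr
    ((omegaEquiv Q).trans (MulEquiv.subgroupCongr hG.commutator_eq_E)))) hdvd
  intro z hz
  exact Subtype.ext (sq_eq_one_of_scalar (frmQ hQ) (hiso z) (SzO.center_scalar hG z hz))

theorem goodP_oodd {m q : ℕ} {T : Type w} [Group T] [Finite T] (hT : IsNamed (.oodd m q) T) {u : ℕ} (hu : u.Prime)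
    (hL : LevP (.oodd m q) u) : GoodP T u (2 * m + 1) := by
  obtain ⟨e, hlev, he⟩ := hL
  obtain ⟨F, _, _, hq, ⟨φ⟩⟩ := hT.real
  obtain ⟨hm, hodd, -⟩ := hT.cond
  have h3 := hlev.1
  have hF0 := natCast_ne_zero hu hq he h3
  have hu5 := five_le hu he h3
  have he' : orderOf ((Nat.card F : ℕ) : ZMod u) = e := by rw [Nat.card_eq_fintype_card, hq]; exact he
  have h2 : (2 : F) ≠ 0 := by
    intro h2
    have := SzO.charP_two_of_eq_zero h2
    have h3 : 2 ∣ Fintype.card F := by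
      rw [← CharP.cast_eq_zero_iff F 2]
      exact Nat.cast_card_eq_zero F
    rw [hq] at h3
    exact (Nat.not_even_iff_odd.2 hodd) (even_iff_two_dvd.2 h3)
  have hfr : finrank F (Unit ⊕ (Fin m ⊕ Fin m) → F) = 2 * m + 1 := by
    rw [finrank_fintype_fun_eq_card, Fintype.card_sum, Fintype.card_sum, Fintype.card_fin,
      Fintype.card_unit]
    omega
  rw [← hfr]
  refine goodP_POmega (nondeg_oddForm m F h2) ?_ (coe_oddForm m F) φ hu (by omega) hF0 (by rw [hfr]; exact lt_ee he' hlev) ?_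
  · rw [← finrank_fintype_fun_eq_card (R := F)]
    omega
  · refine dvd_card_of hT hu ?_ ?_
    · exact Dvd.dvd.mul_left (dvd_prB_of_lev (by rw [← hq]; exact Fintype.card_pos) he hlev) _
    · intro h
      have h' : u ∣ 2 := h
      have := Nat.le_of_dvd (by norm_num) h'
      omega

theorem goodP_oplus {m q : ℕ} {T : Type w} [Group T] [Finite T] (hT : IsNamed (.oplus m q) T) {u : ℕ} (hu : u.Prime)
    (hL : LevP (.oplus m q) u) : GoodP T u (2 * m) := by
  obtain ⟨e, hlev, he⟩ := hL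
  obtain ⟨F, _, _, hq, ⟨φ⟩⟩ := hT.real
  obtain ⟨hm, -⟩ := hT.cond
  have h3 := hlev.1
  have hF0 := natCast_ne_zero hu hq he h3
  have hu5 := five_le hu he h3
  have he' : orderOf ((Nat.card F : ℕ) : ZMod u) = e := by rw [Nat.card_eq_fintype_card, hq]; exact he
  have hfr : finrank F (Fin m ⊕ Fin m → F) = 2 * m := by
    rw [finrank_fintype_fun_eq_card, Fintype.card_sum, Fintype.card_fin]; omega
  rw [← hfr]
  have hq1 : 1 ≤ q := by rw [← hq]; exact Fintype.card_pos
  refine goodP_POmega (nondeg_plusForm m F) ?_ (coe_plusForm m F) φ hu (by omega) hF0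
    (by rw [hfr]; have := lt_ee he' hlev; omega) ?_
  · rw [← finrank_fintype_fun_eq_card (R := F)]
    omega
  · refine dvd_card_of hT hu ?_ (coprime_gcd hu5 hu (by norm_num))
    apply Dvd.dvd.mul_left
    rcases hlev with ⟨-, ⟨hev, h1, h2⟩ | ⟨hod, h1, h2⟩⟩
    · obtain ⟨k, rfl⟩ := hev
      exact Dvd.dvd.mul_left (dvd_prB (j := k) hq1 he (by rw [two_mul]) (by omega) (by omega)) _
    · by_cases hem : e = m
      · exact Dvd.dvd.mul_right (dvd_pow_sub_one hq1 he (by rw [hem])) _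
      · exact Dvd.dvd.mul_left (dvd_prB (j := e) hq1 he (Dvd.intro_left _ rfl) (by omega) (by omega)) _

theorem goodP_ominus {m q : ℕ} {T : Type w} [Group T] [Finite T] (hT : IsNamed (.ominus m q) T) {u : ℕ} (hu : u.Prime)
    (hL : LevP (.ominus m q) u) : GoodP T u (2 * m) := by
  obtain ⟨e, hlev, he⟩ := hL
  obtain ⟨F, _, _, a, b, hq, hab, ⟨φ⟩⟩ := hT.real
  obtain ⟨hm, -⟩ := hT.cond
  have h3 := hlev.1
  have hF0 := natCast_ne_zero hu hq he h3
  have hu5 := five_le hu he h3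
  have he' : orderOf ((Nat.card F : ℕ) : ZMod u) = e := by rw [Nat.card_eq_fintype_card, hq]; exact he
  have hfr : finrank F ((Fin (m - 1) ⊕ Fin (m - 1)) ⊕ Fin 2 → F) = 2 * m := by
    rw [finrank_fintype_fun_eq_card, Fintype.card_sum, Fintype.card_sum, Fintype.card_fin,
      Fintype.card_fin]
    omega
  rw [← hfr]
  have hq1 : 1 ≤ q := by rw [← hq]; exact Fintype.card_pos
  refine goodP_POmega (nondeg_minusForm (m - 1) F a b hab) ?_ (coe_minusForm (m - 1) F a b) φ hu (by omega) hF0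
    (by rw [hfr]; have := lt_ee he' hlev; omega) ?_
  · rw [← finrank_fintype_fun_eq_card (R := F)]
    omega
  · refine dvd_card_of hT hu ?_ (coprime_gcd hu5 hu (by norm_num))
    apply Dvd.dvd.mul_left
    rcases hlev with ⟨-, ⟨hev, h1, h2⟩ | ⟨hod, h1, h2⟩⟩
    · by_cases hem : e = 2 * m
      · apply Dvd.dvd.mul_right
        have hf := Fact.mk hu
        have h4 : ((q : ZMod u) ^ m) ^ 2 = 1 := by
          rw [← pow_mul, mul_comm, ← hem, ← he, pow_orderOf_eq_one]
        have h5 : (q : ZMod u) ^ m ≠ 1 := by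
          intro h6
          have := Nat.le_of_dvd (by omega) (orderOf_dvd_of_pow_eq_one h6)
          omega
        have h6 : (q : ZMod u) ^ m = -1 := (by rcases sq_eq_sq_iff_eq_or_eq_neg.1 (h4.trans (one_pow 2).symm) with h | h; exacts [absurd h h5, h])
        rw [← ZMod.natCast_eq_zero_iff]
        push_cast
        rw [h6]
        exact neg_add_cancel 1
      · obtain ⟨k, rfl⟩ := hev
        exact Dvd.dvd.mul_left (dvd_prB (j := k) hq1 he (by rw [two_mul]) (by omega) (by omega)) _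
    · exact Dvd.dvd.mul_left (dvd_prB (j := e) hq1 he (Dvd.intro_left _ rfl) (by omega) (by omega)) _

/-- **DP8.** The good primes of the symplectic and orthogonal groups are good. -/
theorem goodP_cl {g : Grp} {T : Type w} [Group T] [Finite T] (hT : IsNamed g T)
    (hg : ∃ m q, g = .psp m q ∨ g = .oodd m q ∨ g = .oplus m q ∨ g = .ominus m q) {u : ℕ} (hu : u.Prime)
    (hL : LevP g u) : GoodP T u (dm g) := by
  obtain ⟨m, q, rfl | rfl | rfl | rfl⟩ := hg
  · exact goodP_psp hT hu hL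
  · exact goodP_oodd hT hu hL
  · exact goodP_oplus hT hu hL
  · exact goodP_ominus hT hu hL

end Cfsg.Agent.H105.Dp
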