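import Cfsg.Agent.H105.Dp.Aut

/-!
# Good primes of central quotients of isometry groups (helper105, DP8 of S5734)
-/

set_option autoImplicit false

namespace Cfsg.Agent.H105.Dp

open Module Subgroup Cfsg.Agent.H192.Dp

variable {F V : Type*} [Field F] [AddCommGroup V] [Module F V] [FiniteDimensional F V]

/-- **Good primes.** -/
theorem goodP_of [Finite F] (b : Frm F V) {u : ℕ} (hu : u.Prime) (hu2 : u ≠ 2) (huF : (u : F) ≠ 0)
    (hdim : finrank F V < 2 * ee F u) {H : Type*} [Group H] [Finite H] (ρ : H →* (V ≃ₗ[F] V))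
    (hinj : Function.Injective ρ) (hiso : ∀ h, Iso b (ρ h : V →ₗ[F] V)) (hZ : ∀ z ∈ center H, z ^ 2 = 1)
    {T : Type*} [Group T] [Finite T] (e : T ≃* H ⧸ center H) (hdvd : u ∣ Nat.card T) :
    GoodP T u (finrank F V) := by
  have hfu := Fact.mk hu
  -- the projection
  let f : H →* T := (e.symm : (H ⧸ center H) →* T).comp (QuotientGroup.mk' (center H))
  have hf : Function.Surjective f := e.symm.surjective.comp (QuotientGroup.mk'_surjective _)
  have hker : ∀ h : H, f h = 1 ↔ h ∈ center H := by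
    intro h
    show e.symm (QuotientGroup.mk h) = 1 ↔ _
    rw [EmbeddingLike.map_eq_one_iff, QuotientGroup.eq_one_iff]
  -- the representation by endomorphisms
  let ρ' : H →* (V →ₗ[F] V) :=
    { toFun := fun h => (ρ h : V →ₗ[F] V)
      map_one' := by rw [map_one]; rfl
      map_mul' := fun x y => by rw [map_mul]; rfl }
  have hinj' : Function.Injective ρ' := fun x y hxy => hinj (LinearEquiv.toLinearMap_injective hxy)
  refine ⟨hu, ?_, hdvd, ?_⟩
  · intro P
    obtain ⟨R, rfl⟩ := Sylow.mapSurjective_surjective hf u P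
    have hR : IsCyclic (R : Subgroup H) := by
      refine isCyclic_of b hu hu2 huF hdim R.isPGroup' (ρ'.comp (R : Subgroup H).subtype)
        (hinj'.comp (Subgroup.subtype_injective _)) (fun g => hiso _)
    rw [Sylow.coe_mapSurjective]
    exact isCyclic_of_surjective (f.subgroupMap (R : Subgroup H)) (f.subgroupMap_surjective _)
  · intro x hx
    have hodd : Odd u := hu.odd_of_ne_two hu2
    obtain ⟨h0, hh0⟩ := hf x
    -- a lift of order `u`
    set h := h0 ^ (u + 1) with hh
    have hfh : f h = x := by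
      rw [hh, map_pow, hh0, pow_succ, ← hx, pow_orderOf_eq_one, one_mul]
    have hhu : h ^ u = 1 := by
      have h1 : h0 ^ u ∈ center H := by
        rw [← hker, map_pow, hh0, ← hx, pow_orderOf_eq_one]
      obtain ⟨k, hk⟩ := hodd
      have h2 : u + 1 = 2 * (k + 1) := by omega
      rw [hh, ← pow_mul, mul_comm, pow_mul, h2, pow_mul, hZ _ h1, one_pow]
    have hx1 : x ≠ 1 := by
      rintro rfl
      rw [orderOf_one] at hx
      exact hu.ne_one hx.symm
    have hρu : (ρ' h) ^ u = 1 := by rw [← map_pow, hhu, map_one]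
    have hρ1 : ρ' h ≠ 1 := by
      intro h3
      apply hx1
      rw [← hfh, hinj' (h3.trans (map_one ρ').symm), map_one]
    obtain ⟨S, hS1, hS2⟩ := exists_exponents hu huF hρu hρ1
    refine relIndex_le_of hx S hS1 ?_
    intro n k hn
    obtain ⟨m, rfl⟩ := hf n
    -- `m h m⁻¹ = z h ^ k`
    have h4 : m * h * m⁻¹ * (h ^ k)⁻¹ ∈ center H := by
      rw [← hker]
      simp only [map_mul, map_inv, map_pow, hfh, hn, mul_inv_cancel]
    have h5 : m * h * m⁻¹ = h ^ k := by
      set z := m * h * m⁻¹ * (h ^ k)⁻¹ with hz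
      have h6 : m * h * m⁻¹ = z * h ^ k := by rw [hz]; group
      have h7 : z ^ u = 1 := by
        have h8 : (m * h * m⁻¹) ^ u = 1 := by rw [conj_pow, hhu, mul_one, mul_inv_cancel]
        have hcomm : Commute z (h ^ k) := (mem_center_iff.1 h4 _).symm
        rw [h6, hcomm.mul_pow, ← pow_mul, mul_comm k u, pow_mul, hhu, one_pow, mul_one] at h8
        exact h8
      have h9 : z = 1 := by
        obtain ⟨j, hj⟩ := hodd
        rw [hj, pow_succ, pow_mul, hZ z h4, one_pow, one_mul] at h7
        exact h7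
      rw [h6, h9, one_mul]
    refine hS2 (ρ m) k ?_
    have h6 : ρ' (m * h * m⁻¹) = ρ' (h ^ k) := by rw [h5]
    rw [map_pow] at h6
    rw [← h6, map_mul, map_mul]
    have h7 : ρ' m⁻¹ = ((ρ m).symm : V →ₗ[F] V) := by
      show ((ρ m⁻¹ : V ≃ₗ[F] V) : V →ₗ[F] V) = _
      rw [map_inv]
      rfl
    rw [h7]
    rfl

end Cfsg.Agent.H105.Dp
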